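import Cfsg.Agent.Lib.Helper11.Fi24e0.Top

set_option autoImplicit false
set_option maxRecDepth 100000

namespace Cfsg.Agent.Lib.Helper11.Fi24e0

set_option maxHeartbeats 0
theorem c8 : allR (guardB 990 (cblk fc nc cc 482560 31671 878694100496718043517683302282418331810487718418343092402491322775749527474899974671687634004666183037093927858109549828751614463963730408009475621262727315456 gens)) 6 512 = true := by decide +kernel
theorem c9 : allR (guardB 990 (cblk fc nc cc 482560 31671 878694100496718043517683302282418331810487718418343092402491322775749527474899974671687634004666183037093927858109549828751614463963730408009475621262727315456 gens)) 6 576 = true := by decide +kernel
theorem c10 : allR (guardB 990 (cblk fc nc cc 482560 31671 878694100496718043517683302282418331810487718418343092402491322775749527474899974671687634004666183037093927858109549828751614463963730408009475621262727315456 gens)) 6 640 = true := by decide +kernel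
theorem c11 : allR (guardB 990 (cblk fc nc cc 482560 31671 878694100496718043517683302282418331810487718418343092402491322775749527474899974671687634004666183037093927858109549828751614463963730408009475621262727315456 gens)) 6 704 = true := by decide +kernel
theorem c12 : allR (guardB 990 (cblk fc nc cc 482560 31671 878694100496718043517683302282418331810487718418343092402491322775749527474899974671687634004666183037093927858109549828751614463963730408009475621262727315456 gens)) 6 768 = true := by decide +kernel
theorem c13 : allR (guardB 990 (cblk fc nc cc 482560 31671 878694100496718043517683302282418331810487718418343092402491322775749527474899974671687634004666183037093927858109549828751614463963730408009475621262727315456 gens)) 6 832 = true := by decide +kernel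
theorem c14 : allR (guardB 990 (cblk fc nc cc 482560 31671 878694100496718043517683302282418331810487718418343092402491322775749527474899974671687634004666183037093927858109549828751614463963730408009475621262727315456 gens)) 6 896 = true := by decide +kernel
theorem c15 : allR (guardB 990 (cblk fc nc cc 482560 31671 878694100496718043517683302282418331810487718418343092402491322775749527474899974671687634004666183037093927858109549828751614463963730408009475621262727315456 gens)) 6 960 = true := by decide +kernel

end Cfsg.Agent.Lib.Helper11.Fi24e0
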